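import Cfsg.Agent.McLCover.Step.Data

/-! Generated: checks of the rows. -/

set_option autoImplicit false
set_option maxRecDepth 100000

namespace CfsgLib.McLCover.Step

open CfsgLib.CosetEnum

theorem rows0 : allFrom (checkRow epF (fun x => x) 39598 7 nodeF TF tfF 2025) 0 256 = true := by
  decide +kernel

theorem rows256 : allFrom (checkRow epF (fun x => x) 39598 7 nodeF TF tfF 2025) 256 256 = true := by
  decide +kernel

theorem rows512 : allFrom (checkRow epF (fun x => x) 39598 7 nodeF TF tfF 2025) 512 256 = true := by
  decide +kernel

theorem rows768 : allFrom (checkRow epF (fun x => x) 39598 7 nodeF TF tfF 2025) 768 256 = true := by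
  decide +kernel

theorem rows1024 : allFrom (checkRow epF (fun x => x) 39598 7 nodeF TF tfF 2025) 1024 256 = true := by
  decide +kernel

theorem rows1280 : allFrom (checkRow epF (fun x => x) 39598 7 nodeF TF tfF 2025) 1280 256 = true := by
  decide +kernel

theorem rows1536 : allFrom (checkRow epF (fun x => x) 39598 7 nodeF TF tfF 2025) 1536 256 = true := by
  decide +kernel

theorem rows1792 : allFrom (checkRow epF (fun x => x) 39598 7 nodeF TF tfF 2025) 1792 233 = true := by
  decide +kernel

end CfsgLib.McLCover.Step
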